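import Cfsg.Agent.H931.A7D.PathC
import Cfsg.Agent.H906.A7Twelve

/-!
# `A₇` and `2.A₇` in degree twelve (helper931)
-/

set_option autoImplicit false
set_option linter.unusedSectionVars false

namespace Cfsg.Agent.H931.A7D

open Cfsg Cfsg.Geo Matrix Module Cfsg.Agent.H637.A7Cov Cfsg.Agent.H637.A7Grp Cfsg.Agent.H637.A7Main
  Cfsg.Agent.H637.A7Four Cfsg.Agent.H637.A7Ev Cfsg.Agent.H637.A7Mat Cfsg.Agent.H915.LD

universe u

/-- **The double cover of `A₇` in degree twelve**, every odd characteristic, over an algebraically closed field. -/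
theorem Cov.twelve {K : Type*} [Field K] [IsAlgClosed K] {V : Type*} [AddCommGroup V] [Module K V]
    [FiniteDimensional K V] {D : Type u} [Group D] {π : D →* alternatingGroup (Fin 7)} {g : Fin 5 → D} {z : D}
    {β : D →* GL (Fin 4) (ZMod 7)} (H : Cov π g z β) {σ : D →* Module.End K V} (hz : σ z = -1) (h2 : (2 : K) ≠ 0)
    (hspan : Submodule.span K (Set.range σ) = ⊤) (hn : finrank K V = 12) : False := by
  by_cases h3 : (3 : K) = 0
  · exact H.path_c hz h3 hspan hn
  · by_cases h7 : (7 : K) = 0
    · refine H.path_b hz h2 h3 ?_ hspan hn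
      intro h5
      apply h2
      linear_combination h7 - h5
    · exact H.path_a hz h2 h3 h7 hspan hn

variable {ι : Type} [Fintype ι] [DecidableEq ι] {F : Type u} [Field F] {P : Subgroup (GL ι F)}

/-- the representation of a cover of `P` over the algebraic closure -/
theorem span_rep (hC : Core P) {D : Type u} [Group D] (α : D →* P) (hα : Function.Surjective α) :
    Submodule.span (AlgebraicClosure F) (Set.range (rep ((mK (AlgebraicClosure F) P).comp α))) = ⊤ := by
  set K := AlgebraicClosure F
  have h1 := span_mK K hC.absIrred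
  have h2 : Set.range (rep ((mK K P).comp α)) = (Matrix.toLin' : Matrix ι ι K ≃ₗ[K] _) '' Set.range (mK K P) := by
    ext f
    constructor
    · rintro ⟨d, rfl⟩
      exact ⟨_, ⟨α d, rfl⟩, rfl⟩
    · rintro ⟨_, ⟨p, rfl⟩, rfl⟩
      obtain ⟨d, rfl⟩ := hα p
      exact ⟨d, rfl⟩
  rw [h2]
  have h3 := Submodule.map_span (Matrix.toLin' : Matrix ι ι K ≃ₗ[K] _).toLinearMap (Set.range (mK K P))
  rw [h1] at h3
  rw [eq_top_iff]
  intro f _
  have h4 : f ∈ (⊤ : Submodule K (Matrix ι ι K)).map (Matrix.toLin' : Matrix ι ι K ≃ₗ[K] _).toLinearMap := by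
    refine ⟨Matrix.toLin'.symm f, trivial, ?_⟩
    exact Matrix.toLin'.apply_symm_apply f
  rw [h3] at h4
  exact h4

/-- **`A₇`, `2.A₇` in degree twelve**: scalars of order at most two, odd characteristic. -/
theorem a7_of_sq [Finite F] (p : ℕ) [hp : Fact p.Prime] [CharP F p] (hC : Core P)
    (e : Soc P ≃* alternatingGroup (Fin 7)) (h12 : Fintype.card ι = 12) (h2 : (2 : F) ≠ 0)
    (hZ : ∀ g ∈ P, g ∈ scalars ι F → g * g = 1) : False := by
  classical
  set K := AlgebraicClosure F with hK
  let π : P →* alternatingGroup (Fin 7) := e.toMonoidHom.comp (toSoc P)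
  have hπ : Function.Surjective π := e.surjective.comp (toSoc_surjective P)
  have hker : π.ker = (scalars ι F).subgroupOf P := ker_comp e
  have hk : ∀ k, π k = 1 → (∀ g, k * g = g * k) ∧ k * k = 1 := by
    intro k hk
    have h1 : k ∈ (scalars ι F).subgroupOf P := by rw [← hker]; exact hk
    exact ⟨fun g => (Subgroup.mem_center_iff.1 (scalars_le_center h1) g).symm, Subtype.ext (hZ k k.2 h1)⟩
  obtain ⟨D, g, z, H, hs, hgS, hzm⟩ := exists_good π hπ hk hC.commutator_top (S := Su hb3) (m := -1) (Su_cube hb3)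
    (Su_sq hb3) (by rw [neg_mul_neg, one_mul]) (fun q => by rw [neg_one_mul, mul_neg_one])
  let α : D →* P := (MonoidHom.fst _ _).comp D.subtype
  let β : D →* GL (Fin 4) (ZMod 7) := (MonoidHom.snd _ _).comp D.subtype
  have hα : Function.Surjective α := fun q => by
    obtain ⟨d, hd⟩ := hs q
    exact ⟨d, hd⟩
  have H' : Good (π.comp α) g z := H
  have HC : Cov (π.comp α) g z β :=
    { H' with
      bg := fun i => congrArg Units.val (hgS i)
      bz := hzm }
  by_cases hαz : α z = 1
  · -- trivial scalars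
    have hbot : (scalars ι F).subgroupOf P = ⊥ := by
      rw [← hker, eq_bot_iff]
      intro q hq
      obtain ⟨d, rfl⟩ := hα q
      rw [Subgroup.mem_bot]
      rcases HC.ker d hq with h | h
      · rw [h, map_one]
      · rw [h, hαz]
    exact H906.A7T.a7_simple p hC h12 e hbot
  · -- the double cover
    have hπz : π (α z) = 1 := H'.pi_z
    have hsc : α z ∈ (scalars ι F).subgroupOf P := by rw [← hker]; exact hπz
    obtain ⟨c, hc⟩ := (mem_scalars_iff _).1 (Subgroup.mem_subgroupOf.1 hsc)
    have hsq : (α z : GL ι F) * (α z : GL ι F) = 1 := hZ _ (α z).2 hsc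
    have hne : Nonempty ι := hC.nonempty
    have hcc : (c : F) * c = 1 := by
      have h1 := congrArg Units.val hsq
      rw [Units.val_mul, Units.val_one] at h1
      change ((α z : GL ι F) : Matrix ι ι F) * ((α z : GL ι F) : Matrix ι ι F) = 1 at h1
      rw [hc, smul_mul_smul_comm, one_mul] at h1
      obtain ⟨i⟩ := hne
      have h3 := congrFun (congrFun h1 i) i
      simpa using h3
    have hc1 : (c : F) = -1 := by
      rcases mul_self_eq_one_iff.1 hcc with h | h
      · exfalso
        apply hαz
        apply Subtype.ext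
        apply Units.ext
        rw [h, one_smul] at hc
        exact hc
      · exact h
    have hσz : rep ((mK K P).comp α) z = -1 := by
      have h1 : (mK K P) (α z) = -1 := by
        show ((α z : GL ι F) : Matrix ι ι F).map (algebraMap F K) = -1
        rw [hc, hc1, neg_one_smul]
        ext i j
        simp [Matrix.one_apply]
      show Matrix.toLin' ((mK K P) (α z)) = -1
      rw [h1, map_neg, Matrix.toLin'_one]
      rfl
    have h2K : (2 : K) ≠ 0 := by
      intro h
      apply h2
      have h3 : algebraMap F K 2 = 0 := by rw [map_ofNat, h]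
      exact (map_eq_zero (algebraMap F K)).1 h3
    exact HC.twelve hσz h2K (span_rep hC α hα) (by rw [Module.finrank_fintype_fun_eq_card, h12])

/-- **`A₇`, `2.A₇` in degree twelve**: alternating forms, odd characteristic. -/
theorem a7_double [Finite F] (p : ℕ) [hp : Fact p.Prime] [CharP F p] (hC : Core P)
    (e : Soc P ≃* alternatingGroup (Fin 7)) (h12 : Fintype.card ι = 12) (hA : FixA P) (h2 : (2 : F) ≠ 0) : False := by
  refine a7_of_sq p hC e h12 h2 fun g hg hs => ?_
  obtain ⟨f, hf, hfix⟩ := hA
  obtain ⟨c, hc⟩ := (mem_scalars_iff _).1 hs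
  obtain ⟨i⟩ := hC.nonempty
  have hv : (Pi.single i 1 : ι → F) ≠ 0 := by
    intro h
    have := congrFun h i
    rw [Pi.single_eq_same, Pi.zero_apply] at this
    exact one_ne_zero this
  obtain ⟨⟨x, hx⟩, -⟩ := hf.nondegenerate _ hv
  have h1 : ∀ u v, f ((g : Matrix ι ι F) *ᵥ u) ((g : Matrix ι ι F) *ᵥ v) = f u v := hfix _ ⟨g, hg, rfl⟩
  have h4 : ∀ u v, (c : F) * ((c : F) * f u v) = f u v := by
    intro u v
    have h5 := h1 u v
    rw [hc, Matrix.smul_mulVec, Matrix.smul_mulVec, Matrix.one_mulVec, Matrix.one_mulVec, hf.bilinear.smul_left,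
      hf.bilinear.smul_right] at h5
    exact h5
  have h5 : (c : F) * c = 1 := by
    have h6 := h4 x (Pi.single i 1)
    rw [← mul_assoc] at h6
    have h7 : ((c : F) * c - 1) * f x (Pi.single i 1) = 0 := by rw [sub_mul, h6, one_mul, sub_self]
    exact sub_eq_zero.1 ((mul_eq_zero.1 h7).resolve_right hx)
  apply Units.ext
  rw [Units.val_mul, hc, smul_mul_smul_comm, one_mul, h5, one_smul, Units.val_one]

end Cfsg.Agent.H931.A7D
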